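import Cfsg.Agent.Forms.Witt
import Cfsg.Agent.Forms.Standard
import Cfsg.Agent.Forms.EvenType

/-!
The quadratic form `|S| / 2 mod 2` on the even subsets modulo the whole set, and the action of
the symmetric group on it.
-/

set_option autoImplicit false

open QuadraticMap

namespace CfsgLib.Forms.EvenSubsets

variable (ι : Type) [Fintype ι] [DecidableEq ι]

/-- The sum of the coordinates. -/
def total : (ι → ZMod 2) →ₗ[ZMod 2] ZMod 2 where
  toFun v := ∑ i, v i
  map_add' u v := Finset.sum_add_distrib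
  map_smul' c v := by simp [Finset.mul_sum]

/-- The number of non-zero coordinates. -/
def wt {ι : Type} [Fintype ι] (v : ι → ZMod 2) : ℕ := (Finset.univ.filter fun i => v i ≠ 0).card

variable {ι}

theorem wt_eq (v : ι → ZMod 2) : wt v = ∑ i, if v i ≠ 0 then 1 else 0 := Finset.card_filter _ _

theorem wt_cast (v : ι → ZMod 2) : ((wt v : ℕ) : ZMod 2) = total ι v := by
  rw [wt_eq]
  push_cast
  refine Finset.sum_congr rfl fun i _ => ?_
  generalize v i = a
  revert a; decide

theorem even_wt {v : ι → ZMod 2} (hv : total ι v = 0) : Even (wt v) :=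
  ZMod.natCast_eq_zero_iff_even.1 ((wt_cast v).trans hv)

theorem wt_add (u v : ι → ZMod 2) : wt (u + v) + 2 * (∑ i, if u i ≠ 0 ∧ v i ≠ 0 then 1 else 0) = wt u + wt v := by
  simp only [wt_eq, Finset.mul_sum, ← Finset.sum_add_distrib, Pi.add_apply]
  refine Finset.sum_congr rfl fun i _ => ?_
  have key : ∀ a b : ZMod 2, ((if a + b ≠ 0 then 1 else 0) + 2 * if a ≠ 0 ∧ b ≠ 0 then 1 else 0 : ℕ) =
      (if a ≠ 0 then 1 else 0) + if b ≠ 0 then 1 else 0 := by decide
  convert key (u i) (v i)

/-- The form on even subsets. -/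
def half (v : ι → ZMod 2) : ZMod 2 := ((wt v / 2 : ℕ) : ZMod 2)

theorem half_add {u v : ι → ZMod 2} (hu : total ι u = 0) (hv : total ι v = 0) :
    half (u + v) = half u + half v + ∑ i, u i * v i := by
  obtain ⟨a, ha⟩ := even_wt hu
  obtain ⟨b, hb⟩ := even_wt hv
  obtain ⟨c, hc⟩ := even_wt (v := u + v) (by rw [map_add, hu, hv, add_zero])
  have h := wt_add u v
  set d := ∑ i, if u i ≠ 0 ∧ v i ≠ 0 then 1 else 0 with hd
  have e : c + d = a + b := by omega
  have e' : (d : ZMod 2) = ∑ i, u i * v i := by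
    rw [hd]; push_cast
    refine Finset.sum_congr rfl fun i _ => ?_
    generalize u i = x
    generalize v i = y
    revert x y; decide
  have h2 : ∀ x : ZMod 2, x + x = 0 := by decide
  have e2 := congrArg (Nat.cast : ℕ → ZMod 2) e
  push_cast at e2
  simp only [half, ha, hb, hc, ← two_mul, Nat.mul_div_cancel_left _ (show 0 < 2 by norm_num), ← e']
  rw [← e2, add_assoc, h2, add_zero]

theorem half_zero : half (0 : ι → ZMod 2) = 0 := by simp [half, wt]

theorem half_smul (c : ZMod 2) (v : ι → ZMod 2) : half (c • v) = c * c * half v := by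
  rcases (show ∀ c : ZMod 2, c = 0 ∨ c = 1 by decide) c with rfl | rfl
  · simp [half_zero]
  · simp

variable (ι)

/-- The even vectors. -/
abbrev E : Submodule (ZMod 2) (ι → ZMod 2) := LinearMap.ker (total ι)

variable {ι}

/-- The all-one vector. -/
def one : ι → ZMod 2 := fun _ => 1

theorem wt_one : wt (one : ι → ZMod 2) = Fintype.card ι := by
  simp [wt, one, Finset.card_univ]

variable (h4 : 4 ∣ Fintype.card ι)
include h4

theorem total_one : total ι one = 0 := by
  rw [← wt_cast, wt_one, ZMod.natCast_eq_zero_iff_even]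
  exact even_iff_two_dvd.2 ((show 2 ∣ 4 by norm_num).trans h4)

theorem half_one : half (one : ι → ZMod 2) = 0 := by
  obtain ⟨k, hk⟩ := h4
  rw [half, wt_one, hk, show 4 * k / 2 = 2 * k by omega]
  push_cast
  rw [show (2 : ZMod 2) = 0 from rfl, zero_mul]

theorem half_add_one {u : ι → ZMod 2} (hu : total ι u = 0) : half (u + one) = half u := by
  rw [half_add hu (total_one h4), half_one h4, add_zero]
  have : ∑ i, u i * one i = total ι u := by simp [one, total]
  rw [this, hu, add_zero]

/-- The all-one vector inside `E`. -/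
abbrev oneE : E ι := ⟨one, LinearMap.mem_ker.2 (total_one h4)⟩

/-- The module. -/
abbrev V : Type := E ι ⧸ Submodule.span (ZMod 2) {oneE h4}

/-- The quotient map. -/
abbrev mk : E ι →ₗ[ZMod 2] V h4 := Submodule.mkQ _

theorem mk_eq_mk {u v : E ι} : mk h4 u = mk h4 v ↔ ∃ c : ZMod 2, ∀ i, u.1 i = v.1 i + c := by
  rw [mk, Submodule.mkQ_apply, Submodule.mkQ_apply, Submodule.Quotient.eq, Submodule.mem_span_singleton]
  constructor
  · rintro ⟨c, hc⟩
    refine ⟨c, fun i => ?_⟩
    have := congrFun (congrArg Subtype.val hc) i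
    simp [one] at this
    rw [this]; ring
  · rintro ⟨c, hc⟩
    exact ⟨c, Subtype.ext (funext fun i => by simp [one, hc i])⟩

theorem half_congr {u v : E ι} (h : mk h4 u = mk h4 v) : half u.1 = half v.1 := by
  obtain ⟨c, hc⟩ := (mk_eq_mk h4).1 h
  rcases (show ∀ c : ZMod 2, c = 0 ∨ c = 1 by decide) c with rfl | rfl
  · congr 1; funext i; simp [hc i]
  · rw [show u.1 = v.1 + one from funext fun i => hc i, half_add_one h4 (LinearMap.mem_ker.1 v.2)]

/-- The quadratic form. -/
noncomputable def form : QuadraticForm (ZMod 2) (V h4) :=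
  QuadraticMap.ofPolar (fun x => half (Function.surjInv (Submodule.mkQ_surjective _) x).1)
    (fun a x => by
      obtain ⟨u, rfl⟩ := Submodule.mkQ_surjective _ x
      rw [← map_smul]
      rw [half_congr h4 (Function.surjInv_eq (Submodule.mkQ_surjective _) (mk h4 (a • u))),
        half_congr h4 (Function.surjInv_eq (Submodule.mkQ_surjective _) (mk h4 u))]
      rw [Submodule.coe_smul, half_smul, smul_eq_mul])
    (fun x x' y => by
      obtain ⟨u, rfl⟩ := Submodule.mkQ_surjective _ x
      obtain ⟨u', rfl⟩ := Submodule.mkQ_surjective _ x'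
      obtain ⟨v, rfl⟩ := Submodule.mkQ_surjective _ y
      simp only [polar, ← map_add]
      simp only [half_congr h4 (Function.surjInv_eq (Submodule.mkQ_surjective _) (mk h4 _)), Submodule.coe_add]
      have hu := LinearMap.mem_ker.1 u.2
      have hu' := LinearMap.mem_ker.1 u'.2
      have hv := LinearMap.mem_ker.1 v.2
      rw [half_add (by rw [map_add, hu, hu', add_zero]) hv, half_add hu hu', half_add hu hv, half_add hu' hv]
      simp [add_mul, Finset.sum_add_distrib]
      ring)
    (fun a x y => by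
      obtain ⟨u, rfl⟩ := Submodule.mkQ_surjective _ x
      obtain ⟨v, rfl⟩ := Submodule.mkQ_surjective _ y
      simp only [polar, ← map_smul, ← map_add]
      simp only [half_congr h4 (Function.surjInv_eq (Submodule.mkQ_surjective _) (mk h4 _)), Submodule.coe_add,
        Submodule.coe_smul]
      have hu := LinearMap.mem_ker.1 u.2
      have hv := LinearMap.mem_ker.1 v.2
      rw [half_add (by rw [map_smul, hu, smul_zero]) hv, half_add hu hv]
      simp [mul_assoc, ← Finset.mul_sum]
      ring)

theorem form_mk (u : E ι) : form h4 (mk h4 u) = half u.1 :=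
  half_congr h4 (Function.surjInv_eq (Submodule.mkQ_surjective _) (mk h4 u))

theorem polar_mk (u v : E ι) : polar (form h4) (mk h4 u) (mk h4 v) = ∑ i, u.1 i * v.1 i := by
  rw [polar, ← map_add, form_mk, form_mk, form_mk, Submodule.coe_add,
    half_add (LinearMap.mem_ker.1 u.2) (LinearMap.mem_ker.1 v.2)]
  ring

theorem finrank_V [Nonempty ι] : Module.finrank (ZMod 2) (V h4) + 2 = Fintype.card ι := by
  have h1 := (total ι).finrank_range_add_finrank_ker
  obtain ⟨i₀⟩ := ‹Nonempty ι›
  have hs : Function.Surjective (total ι) := fun c => ⟨Pi.single i₀ c, by simp [total]⟩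
  rw [LinearMap.range_eq_top.2 hs, finrank_top, Module.finrank_self, Module.finrank_fintype_fun_eq_card] at h1
  have h0 : oneE h4 ≠ 0 := fun h => one_ne_zero (congrFun (congrArg Subtype.val h) i₀)
  have h2 := Submodule.finrank_quotient_add_finrank (Submodule.span (ZMod 2) {oneE h4})
  rw [finrank_span_singleton h0] at h2
  change Module.finrank (ZMod 2) (V h4) + 1 = Module.finrank (ZMod 2) (E ι) at h2
  change 1 + Module.finrank (ZMod 2) (E ι) = Fintype.card ι at h1
  omega

theorem nondegenerate [Nonempty ι] : (polarBilin (form h4)).Nondegenerate := by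
  refine nondegenerate_iff.2 fun x hx => ?_
  obtain ⟨u, rfl⟩ := Submodule.mkQ_surjective _ x
  obtain ⟨i₀⟩ := ‹Nonempty ι›
  refine ((mk_eq_mk h4).2 ⟨u.1 i₀, fun i => ?_⟩).trans (map_zero (mk h4))
  have hmem : (Pi.single i 1 + Pi.single i₀ 1 : ι → ZMod 2) ∈ E ι := by
    simp [E, LinearMap.mem_ker, total, Finset.sum_add_distrib, show (1 : ZMod 2) + 1 = 0 from rfl]
  have := hx (mk h4 ⟨_, hmem⟩)
  rw [polar_mk] at this
  simp [mul_add, Finset.sum_add_distrib, Pi.single_apply] at this
  have h2 : ∀ x : ZMod 2, x + x = 0 := by decide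
  show u.1 i = 0 + u.1 i₀
  calc u.1 i = u.1 i + (u.1 i₀ + u.1 i₀) := by rw [h2, add_zero]
    _ = _ := by rw [← add_assoc, this]

/-- The permutation action. -/
noncomputable def act : Equiv.Perm ι →* Module.End (ZMod 2) (V h4) :=
  let P : Equiv.Perm ι → (E ι →ₗ[ZMod 2] E ι) := fun σ =>
    LinearMap.codRestrict (E ι) ((LinearMap.funLeft (ZMod 2) (ZMod 2) σ.symm).comp (E ι).subtype) fun v =>
      LinearMap.mem_ker.2 ((Equiv.sum_comp σ.symm v.1).trans (LinearMap.mem_ker.1 v.2))
  have hP : ∀ σ, Submodule.span (ZMod 2) {oneE h4} ≤ (Submodule.span (ZMod 2) {oneE h4}).comap (P σ) := fun σ =>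
    (Submodule.span_singleton_le_iff_mem _ _).2 (by
      show P σ (oneE h4) ∈ _
      rw [show P σ (oneE h4) = oneE h4 from Subtype.ext rfl]
      exact Submodule.mem_span_singleton_self _)
  { toFun := fun σ => Submodule.mapQ _ _ (P σ) (hP σ)
    map_one' := Submodule.linearMap_qext _ (LinearMap.ext fun _ => rfl)
    map_mul' := fun _ _ => Submodule.linearMap_qext _ (LinearMap.ext fun _ => rfl) }

theorem act_form (σ : Equiv.Perm ι) (x : V h4) : form h4 (act h4 σ x) = form h4 x := by
  obtain ⟨u, rfl⟩ := Submodule.mkQ_surjective _ x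
  show form h4 (mk h4 ⟨fun i => u.1 (σ.symm i), _⟩) = form h4 (mk h4 u)
  rw [form_mk, form_mk]
  simp only [half, wt_eq]
  rw [Equiv.sum_comp σ.symm fun i => if u.1 i ≠ 0 then 1 else 0]

theorem act_injective (h5 : 5 ≤ Fintype.card ι) : Function.Injective (act h4) := by
  refine (injective_iff_map_eq_one (act h4)).2 fun σ hσ => Equiv.ext fun a => ?_
  by_contra hne
  change σ a ≠ a at hne
  obtain ⟨b, -, hb⟩ := Finset.exists_mem_notMem_of_card_lt_card (s := ({a, σ a} : Finset ι)) (t := Finset.univ)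
    (lt_of_le_of_lt Finset.card_le_two (by rw [Finset.card_univ]; omega))
  simp only [Finset.mem_insert, Finset.mem_singleton, not_or] at hb
  have hmem : (Pi.single a 1 + Pi.single b 1 : ι → ZMod 2) ∈ E ι := by
    simp [E, LinearMap.mem_ker, total, Finset.sum_add_distrib, show (1 : ZMod 2) + 1 = 0 from rfl]
  have h1 := LinearMap.congr_fun hσ (mk h4 ⟨_, hmem⟩)
  obtain ⟨c, hc⟩ := (mk_eq_mk h4).1 (show mk h4 ⟨fun i => (Pi.single a 1 + Pi.single b 1 : ι → ZMod 2) (σ.symm i),
    LinearMap.mem_ker.2 ((Equiv.sum_comp σ.symm _).trans (LinearMap.mem_ker.1 hmem))⟩ = mk h4 ⟨_, hmem⟩ from h1)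
  have h2 := hc (σ a)
  simp [Pi.single_apply, hne, Ne.symm hb.1, Ne.symm hb.2] at h2
  obtain ⟨i, -, hi⟩ := Finset.exists_mem_notMem_of_card_lt_card (s := ({σ a, σ b, a, b} : Finset ι)) (t := Finset.univ)
    (lt_of_le_of_lt Finset.card_le_four (by rw [Finset.card_univ]; omega))
  simp only [Finset.mem_insert, Finset.mem_singleton, not_or] at hi
  have h3 := hc i
  simp [Pi.single_apply, hi, Equiv.symm_apply_eq] at h3
  rw [← h3] at h2
  exact one_ne_zero h2

end CfsgLib.Forms.EvenSubsets
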