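import Cfsg.Agent.Forms.OrthBasics

/-!
Products of two reflections with the same value, modulo a normal subgroup containing all
reflections of one square class.
-/

set_option autoImplicit false

open QuadraticMap Matrix

namespace CfsgLib.Forms

variable {F : Type*} [Field F] [Finite F] {ι : Type} [Fintype ι] [DecidableEq ι]
  {Q : QuadraticForm F (ι → F)}

theorem listGL_nil : listGL Q ([] : List {u : ι → F // Q u ≠ 0}) = 1 :=
  (isoEquiv Q).injective (by rw [map_one, isoEquiv_listGL]; rfl)

theorem listGL_inj {l k : List {u : ι → F // Q u ≠ 0}}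
    (h : ∀ v, reflProd Q l v = reflProd Q k v) : listGL Q l = listGL Q k := by
  refine (isoEquiv Q).injective ?_
  rw [isoEquiv_listGL, isoEquiv_listGL]
  exact Subtype.ext (LinearEquiv.ext h)

omit [Finite F] [Fintype ι] [DecidableEq ι] in
/-- In a non-degenerate plane a singular vector orthogonal to an anisotropic one is zero. -/
theorem plane_singular {p w : ι → F} {ν : F} (hp : Q p = ν) (hw : Q w = ν)
    (hnd : polar Q p w ^ 2 ≠ 4 * ν ^ 2) {z a : ι → F} (hz : z ∈ Submodule.span F {p, w})
    (ha : a ∈ Submodule.span F {p, w}) (hz0 : Q z = 0) (hza : polar Q z a = 0) (ha0 : Q a ≠ 0) : z = 0 := by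
  obtain ⟨A, B, rfl⟩ := Submodule.mem_span_pair.1 hz
  obtain ⟨C, D, rfl⟩ := Submodule.mem_span_pair.1 ha
  set β := polar Q p w
  rw [map_add_smul, QuadraticMap.map_smul, hp, hw, polar_smul_left] at hz0 ha0
  simp only [polar_add_left, polar_add_right, polar_smul_left, polar_smul_right, polar_self, hp, hw,
    polar_comm Q w p, smul_eq_mul, nsmul_eq_mul, Nat.cast_ofNat] at hza
  simp only [smul_eq_mul] at hz0 ha0
  have key : (A * D - B * C) ^ 2 * (4 * ν ^ 2 - β ^ 2) = 0 := by
    linear_combination (4 * (C * C * ν + D * D * ν + D * (C * β))) * hz0 -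
      (A * (2 * ν * C + β * D) + B * (β * C + 2 * ν * D)) * hza
  have hAD : A * D - B * C = 0 :=
    pow_eq_zero_iff two_ne_zero |>.1 ((mul_eq_zero.1 key).resolve_right (sub_ne_zero.2 (Ne.symm hnd)))
  have hA : A = 0 := by
    by_contra hA
    refine ha0 (mul_left_cancel₀ (mul_ne_zero hA hA) ?_)
    linear_combination (C * C) * hz0 + (ν * (A * D + B * C) + A * C * β) * hAD
  have hB : B = 0 := by
    by_contra hB
    refine ha0 (mul_left_cancel₀ (mul_ne_zero hB hB) ?_)
    subst hA
    linear_combination (D * D) * hz0 + (ν * (- B * C) - B * D * β) * hAD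
  simp [hA, hB]

omit [Finite F] [Fintype ι] [DecidableEq ι] in
theorem reflProd_plane {P : Submodule F (ι → F)} :
    ∀ l : List {u : ι → F // Q u ≠ 0}, (∀ u ∈ l, u.1 ∈ P) →
      (∀ v ∈ P, reflProd Q l v ∈ P) ∧ ∀ v, (∀ u ∈ P, polar Q v u = 0) → reflProd Q l v = v
  | [], _ => ⟨fun _ h => h, fun _ _ => rfl⟩
  | u :: l, h => by
    obtain ⟨h1, h2⟩ := reflProd_plane l fun x hx => h x (List.mem_cons_of_mem _ hx)
    refine ⟨fun v hv => ?_, fun v hv => ?_⟩
    · show refl Q u.1 u.2 (reflProd Q l v) ∈ P
      rw [refl_apply]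
      exact sub_mem (h1 v hv) (P.smul_mem _ (h u List.mem_cons_self))
    · show refl Q u.1 u.2 (reflProd Q l v) = v
      rw [h2 v hv, refl_apply, hv u.1 (h u List.mem_cons_self)]
      simp

/-- A word of reflections of a non-degenerate plane fixing an anisotropic vector of it. -/
theorem plane_fix (h2 : (2 : F) ≠ 0) {p w : ι → F} {ν : F} (hν : ν ≠ 0) (hw : Q w = ν)
    (z : {u : ι → F // Q u ≠ 0}) (hz : z.1 = p - (polar Q p w / (2 * ν)) • w)
    (l : List {u : ι → F // Q u ≠ 0}) (hl : ∀ u ∈ l, u.1 ∈ Submodule.span F {p, w})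
    (hlw : reflProd Q l w = w) :
    listGL Q l = if Even l.length then 1 else listGL Q [z] := by
  obtain ⟨hP, hPperp⟩ := reflProd_plane l hl
  set P := Submodule.span F ({p, w} : Set (ι → F))
  have hwP : w ∈ P := Submodule.subset_span (by simp)
  have hzP : z.1 ∈ P := hz ▸ sub_mem (Submodule.subset_span (by simp)) (P.smul_mem _ hwP)
  have hzw : polar Q z.1 w = 0 := by
    rw [hz, polar_sub_left, polar_smul_left, polar_self, hw, smul_eq_mul, nsmul_eq_mul]
    field_simp; push_cast; ring
  have hmem := hP z.1 hzP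
  obtain ⟨A, B, hAB⟩ := Submodule.mem_span_pair.1 hmem
  have hiso : reflProd Q l ∈ isom Q := reflProd_mem_isom l
  have hw0 : polar Q (reflProd Q l z.1) w = 0 := by
    conv_lhs => rw [← hlw]
    rw [isom_polar hiso, hzw]
  have hlz : reflProd Q l z.1 = A • z.1 := by
    have hp' : p = z.1 + (polar Q p w / (2 * ν)) • w := by rw [hz]; abel
    have : reflProd Q l z.1 = A • z.1 + (A * (polar Q p w / (2 * ν)) + B) • w := by
      rw [← hAB]; nth_rewrite 1 [hp']; module
    rw [this, polar_add_left, polar_smul_left, polar_smul_left, hzw, polar_self, hw] at hw0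
    simp [h2, hν] at hw0
    rw [this, hw0, zero_smul, add_zero]
  have hA : A = 1 ∨ A = -1 := by
    have := hiso z.1
    rw [hlz, QuadraticMap.map_smul, smul_eq_mul] at this
    exact mul_self_eq_one_iff.1 (mul_right_cancel₀ z.2 (by rw [this, one_mul]))
  have hext : ∀ k : List {u : ι → F // Q u ≠ 0}, (∀ v, (∀ u ∈ P, polar Q v u = 0) → reflProd Q k v = v) →
      reflProd Q k w = w → reflProd Q k z.1 = A • z.1 → listGL Q l = listGL Q k := by
    intro k hk hkw hkz
    refine listGL_inj fun v => ?_
    set r := v - (polar Q v w / (2 * ν)) • w - (polar Q v z.1 / (2 * Q z.1)) • z.1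
    have hzz : Q z.1 ≠ 0 := z.2
    have hr : ∀ u ∈ P, polar Q r u = 0 := by
      have hrw : polar Q r w = 0 := by
        simp only [r, polar_sub_left, polar_smul_left, polar_self, hw, hzw, smul_eq_mul, nsmul_eq_mul]
        field_simp; push_cast; ring
      have hrz : polar Q r z.1 = 0 := by
        simp only [r, polar_sub_left, polar_smul_left, polar_self, polar_comm Q w z.1, hzw, smul_eq_mul, nsmul_eq_mul]
        field_simp; push_cast; ring
      intro u hu
      obtain ⟨C, D, rfl⟩ := Submodule.mem_span_pair.1 hu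
      have hp' : p = z.1 + (polar Q p w / (2 * ν)) • w := by rw [hz]; abel
      rw [hp', polar_add_right, polar_smul_right, polar_smul_right, polar_add_right, polar_smul_right, hrw, hrz]
      simp
    have hv : v = r + (polar Q v w / (2 * ν)) • w + (polar Q v z.1 / (2 * Q z.1)) • z.1 := by
      simp only [r]; abel
    rw [hv, map_add, map_add, map_add, map_add, map_smul, map_smul, map_smul, map_smul, hPperp r hr, hk r hr,
      hlw, hkw, hlz, hkz]
  have hsingle : ∀ v, reflProd Q [z] v = refl Q z.1 z.2 v := fun v => rfl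
  have hdet : ∀ k, listGL Q l = listGL Q k → (-1 : F) ^ l.length = (-1) ^ k.length := fun k h => by
    rw [← det_of_list (isoEquiv_listGL l), ← det_of_list (isoEquiv_listGL k), h]
  have hne : (-1 : F) ≠ 1 := fun h => h2 (by linear_combination -h)
  rcases hA with rfl | rfl
  · have h1 := hext [] (fun v _ => rfl) rfl (one_smul _ _).symm
    have := hdet [] h1
    rw [List.length_nil, pow_zero, neg_one_pow_eq_one_iff_even hne] at this
    rw [if_pos this, h1, listGL_nil]
  · have h1 := hext [z] (fun v hv => by rw [hsingle, refl_apply, hv z.1 hzP]; simp)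
      (by rw [hsingle, refl_apply, polar_comm, hzw]; simp)
      (by
        rw [hsingle, refl_apply, polar_self, nsmul_eq_mul, Nat.cast_ofNat]
        have := z.2
        match_scalars; field_simp; ring)
    have h' := hdet [z] h1
    rw [List.length_singleton, pow_one] at h'
    have hodd : ¬ Even l.length := fun he => hne (by rw [he.neg_one_pow] at h'; exact h'.symm)
    rw [if_neg hodd, h1]

/-- Two reflections of equal value in a non-degenerate plane. -/
theorem pair_mem_of_plane (h2 : (2 : F) ≠ 0) (hQ : (polarBilin Q).Nondegenerate)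
    (K : Subgroup (Cfsg.isometryGroup F ⇑Q)) {c : F} (hc : c ≠ 0)
    (hK : ∀ u : {u : ι → F // Q u ≠ 0}, IsSquare (c * Q u.1) → listGL Q [u] ∈ K)
    {p w : {u : ι → F // Q u ≠ 0}} {ν : F} (hp : Q p.1 = ν) (hw : Q w.1 = ν)
    (hnd : polar Q p.1 w.1 ^ 2 ≠ 4 * ν ^ 2) : listGL Q [p, w] ∈ K := by
  have hν : ν ≠ 0 := hp ▸ p.2
  set β := polar Q p.1 w.1
  have hd : ν - β ^ 2 / (4 * ν) ≠ 0 := by
    intro h0
    refine hnd ?_
    have h4 : (4 : F) ≠ 0 := by rw [show (4 : F) = 2 * 2 by norm_num]; exact mul_ne_zero h2 h2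
    field_simp at h0
    linear_combination -h0
  obtain ⟨s, t, hst⟩ := exists_two_squares hν hd c
  have hx : Q ((s - t * β / (2 * ν)) • p.1 + t • w.1) = c := by
    rw [map_add_smul, QuadraticMap.map_smul, hp, hw, polar_smul_left]
    show (s - t * β / (2 * ν)) * (s - t * β / (2 * ν)) * ν + t * t * ν + t * ((s - t * β / (2 * ν)) * β) = c
    rw [← hst]
    have h4 : (4 : F) = 2 * 2 := by norm_num
    rw [h4]
    field_simp
    ring
  let x : {u : ι → F // Q u ≠ 0} := ⟨_, by rw [hx]; exact hc⟩
  set P := Submodule.span F ({p.1, w.1} : Set (ι → F))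
  have hpP : p.1 ∈ P := Submodule.subset_span (by simp)
  have hwP : w.1 ∈ P := Submodule.subset_span (by simp)
  have hxP : x.1 ∈ P := add_mem (P.smul_mem _ hpP) (P.smul_mem _ hwP)
  have hz0 : Q (p.1 - (β / (2 * ν)) • w.1) ≠ 0 := by
    intro h0
    rw [sub_eq_add_neg, ← neg_smul, map_add_smul, hp, hw] at h0
    refine hd ?_
    rw [← h0]
    show _ = ν + -(β / (2 * ν)) * -(β / (2 * ν)) * ν + -(β / (2 * ν)) * β
    have h4 : (4 : F) = 2 * 2 := by norm_num
    rw [h4]
    field_simp
    ring
  let z : {u : ι → F // Q u ≠ 0} := ⟨_, hz0⟩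
  have hmemP : ∀ u ∈ [x, p, w], u.1 ∈ P := by simp [hxP, hpP, hwP]
  obtain ⟨hP, -⟩ := reflProd_plane [x, p, w] hmemP
  -- the product of the three reflections is one reflection
  obtain ⟨y, hy⟩ : ∃ y : {u : ι → F // Q u ≠ 0}, listGL Q [x, p, w] = listGL Q [y] := by
    by_cases hfix : reflProd Q [x, p, w] w.1 = w.1
    · exact ⟨z, by rw [plane_fix h2 hν hw z rfl _ hmemP hfix, if_neg (by simp [Nat.even_add_one])]⟩
    set w' := reflProd Q [x, p, w] w.1
    have hw'P : w' ∈ P := hP _ hwP
    have hw'Q : Q w' = ν := (reflProd_mem_isom [x, p, w] w.1).trans hw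
    have hyP : w.1 - w' ∈ P := sub_mem hwP hw'P
    have hy0 : Q (w.1 - w') ≠ 0 := fun h0 => hfix (sub_eq_zero.1 (plane_singular hp hw hnd hyP hwP h0 (by
      rw [map_sub', hw, hw'Q] at h0
      rw [polar_sub_left, polar_self, hw, nsmul_eq_mul, Nat.cast_ofNat, polar_comm Q w' w.1]
      linear_combination h0) w.2)).symm
    let y : {u : ι → F // Q u ≠ 0} := ⟨_, hy0⟩
    have h4 : ∀ u ∈ [y, x, p, w], u.1 ∈ P := by simp [y, hyP, hxP, hpP, hwP]
    have hyw : reflProd Q [y, x, p, w] w.1 = w.1 := by
      show refl Q (w.1 - w') hy0 w' = w.1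
      rw [refl_apply]
      have e : polar Q w' (w.1 - w') = - Q (w.1 - w') := by
        rw [polar_sub_right, polar_self, hw'Q, map_sub', hw, hw'Q, nsmul_eq_mul, Nat.cast_ofNat, polar_comm Q w' w.1]
        ring
      rw [e, mul_neg, inv_mul_cancel₀ hy0]
      module
    have h1 := plane_fix h2 hν hw z rfl _ h4 hyw
    rw [if_pos ⟨2, rfl⟩, show [y, x, p, w] = [y] ++ [x, p, w] from rfl, listGL_append] at h1
    refine ⟨y, (eq_inv_of_mul_eq_one_right h1).trans ?_⟩
    refine inv_eq_of_mul_eq_one_right ?_
    rw [← listGL_append, ← listGL_nil]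
    exact listGL_inj fun v => reflL_reflL y.2 v
  have hsq : IsSquare (c * Q y.1) := by
    have hone : listGL Q ([x, p, w] ++ [y]) = 1 := by
      rw [listGL_append, hy, ← listGL_append, ← listGL_nil]
      exact listGL_inj fun v => reflL_reflL y.2 v
    have := (listGL_mem_Omega hQ (Or.inl (natCard_ne_two h2)) ([x, p, w] ++ [y])).1 (hone ▸ one_mem _)
    obtain ⟨r, hr⟩ := this.2
    simp only [valueProd, List.cons_append, List.nil_append, List.map_cons, List.map_nil, List.prod_cons,
      List.prod_nil, mul_one, x, hx, hp, hw] at hr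
    refine ⟨r / ν, ?_⟩
    field_simp
    linear_combination hr
  have e : listGL Q [p, w] = listGL Q [x] * listGL Q [x, p, w] := by
    rw [← listGL_append]
    exact listGL_inj fun v => ((reflL_reflL x.2 (reflProd Q [p, w] v))).symm
  rw [e, hy]
  exact mul_mem (hK x (by simp only [x, hx]; exact ⟨c, rfl⟩)) (hK y hsq)

/-- Two reflections of equal value, in dimension two or outside `(4, 3)`. -/
theorem pair_mem (h2 : (2 : F) ≠ 0) (hQ : (polarBilin Q).Nondegenerate)
    (hn : Fintype.card ι ≤ 2 ∨ Nat.card F ≠ 3 ∨ 5 ≤ Fintype.card ι)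
    (K : Subgroup (Cfsg.isometryGroup F ⇑Q)) {c : F} (hc : c ≠ 0)
    (hK : ∀ u : {u : ι → F // Q u ≠ 0}, IsSquare (c * Q u.1) → listGL Q [u] ∈ K)
    {p w : {u : ι → F // Q u ≠ 0}} (hpw : Q p.1 = Q w.1) : listGL Q [p, w] ∈ K := by
  set ν := Q p.1 with hν'
  have hν : ν ≠ 0 := p.2
  by_cases hnd : polar Q p.1 w.1 ^ 2 ≠ 4 * ν ^ 2
  · exact pair_mem_of_plane h2 hQ K hc hK rfl hpw.symm hnd
  push Not at hnd
  set l := polar Q p.1 w.1 / (2 * ν)
  have hl : l * l = 1 := by simp only [l]; field_simp; linear_combination hnd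
  have hβ : polar Q p.1 w.1 = 2 * ν * l := by simp only [l]; field_simp
  set d := w.1 - l • p.1 with hd'
  have hd : Q d = 0 := by
    rw [hd', map_sub', QuadraticMap.map_smul, polar_smul_right, polar_comm, ← hν', ← hpw, hβ, smul_eq_mul,
      smul_eq_mul]
    linear_combination (-ν) * hl
  have hdp : polar Q d p.1 = 0 := by
    rw [hd', polar_sub_left, polar_smul_left, polar_comm, hβ, polar_self, ← hν', smul_eq_mul, nsmul_eq_mul]
    push_cast; ring
  by_cases hd0 : d = 0
  · have hwp : w.1 = l • p.1 := by rwa [hd', sub_eq_zero] at hd0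
    have : listGL Q [p, w] = listGL Q [] := listGL_inj fun v => by
      show refl Q p.1 p.2 (refl Q w.1 w.2 v) = v
      have : refl Q w.1 w.2 v = refl Q p.1 p.2 v := by
        rw [refl_apply, refl_apply, ← hν', ← hpw, hwp, polar_smul_right, smul_eq_mul, smul_smul]
        congr 2
        linear_combination (ν⁻¹ * polar Q v p.1) * hl
      rw [this]
      exact reflL_reflL p.2 v
    rw [this, listGL_nil]; exact one_mem K
  have hind : d ∉ Submodule.span F {p.1} := fun h => by
    obtain ⟨s, hs⟩ := Submodule.mem_span_singleton.1 h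
    rw [← hs, polar_smul_left, polar_self, ← hν', smul_eq_mul, nsmul_eq_mul] at hdp
    have : s = 0 := (mul_eq_zero.1 hdp).resolve_right (mul_ne_zero (by exact_mod_cast h2) hν)
    exact hd0 (by rw [← hs, this, zero_smul])
  obtain ⟨f, hf, hf0, hdf⟩ := exists_partner hQ (mem_perp_span.2 (by simpa using hdp)) hd hind
  have hfp : polar Q f p.1 = 0 := mem_perp.1 hf _ (Submodule.mem_span_singleton_self _)
  obtain ⟨x, hx, hxp, hxd⟩ : ∃ x, Q x = ν ∧ polar Q x p.1 = 0 ∧ polar Q x d ^ 2 ≠ 4 * ν ^ 2 := by
    rcases hn with hn | hn | hn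
    · exfalso
      let M : Fin 3 → (ι → F) := ![d, f, p.1]
      have hli : LinearIndependent F M := by
        rw [Fintype.linearIndependent_iff]
        intro g hg
        simp only [Fin.sum_univ_three, M, Matrix.cons_val_zero, Matrix.cons_val_one, Matrix.cons_val] at hg
        have k1 := congrArg (fun v => polar Q v f) hg
        have k2 := congrArg (fun v => polar Q v d) hg
        have k3 := congrArg (fun v => polar Q v p.1) hg
        simp only [polar_add_left, polar_smul_left, polar_self, hd, hf0, hdf, polar_comm Q f d, hdp, hfp,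
          polar_comm Q p.1 f, polar_comm Q p.1 d, ← hν', polar_zero_left, smul_eq_mul] at k1 k2 k3
        intro i
        fin_cases i
        · simpa using k1
        · simpa using k2
        · simpa [h2, hν] using k3
      have := hli.fintype_card_le_finrank
      rw [Fintype.card_fin, Module.finrank_fintype_fun_eq_card] at this
      omega
    · obtain ⟨s, hs0, hs1, hs2⟩ : ∃ s : F, s ≠ 0 ∧ s ≠ 2 * ν ∧ s ≠ -(2 * ν) := by
        by_contra hall
        push Not at hall
        refine hn ?_
        have := Fintype.ofFinite F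
        classical
        have huniv : (Finset.univ : Finset F) = {0, 2 * ν, -(2 * ν)} := by
          ext s; simp only [Finset.mem_univ, Finset.mem_insert, Finset.mem_singleton, true_iff]
          by_cases h0 : s = 0
          · exact Or.inl h0
          by_cases h1 : s = 2 * ν
          · exact Or.inr (Or.inl h1)
          exact Or.inr (Or.inr (hall s h0 h1))
        have h2ν : (2 : F) * ν ≠ 0 := mul_ne_zero h2 hν
        rw [Nat.card_eq_fintype_card, ← Finset.card_univ, huniv, Finset.card_insert_of_notMem,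
          Finset.card_pair]
        · exact fun h => mul_ne_zero h2 h2ν (by linear_combination h)
        · simp [h2, hν, Ne.symm hν]
      refine ⟨(ν / s) • d + s • f, ?_, ?_, ?_⟩
      · rw [map_add_smul, QuadraticMap.map_smul, hd, hf0, polar_smul_left, hdf]
        simp only [smul_eq_mul]; field_simp; ring
      · rw [polar_add_left, polar_smul_left, polar_smul_left, hdp, hfp]; simp
      · rw [polar_add_left, polar_smul_left, polar_smul_left, polar_self, hd, polar_comm Q f d, hdf]
        simp only [smul_eq_mul, mul_one, smul_zero, mul_zero, zero_add]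
        intro h
        rcases sq_eq_sq_iff_eq_or_eq_neg.1 (show s ^ 2 = (2 * ν) ^ 2 by linear_combination h) with h | h
        · exact hs1 h
        · exact hs2 h
    · set U := Submodule.span F (Set.range ![p.1, d, f])
      have hU : Module.finrank F U ≤ 3 := (finrank_range_le_card (R := F) _).trans (by simp)
      have hdisj : Disjoint (perp Q U) (perp Q (perp Q U)) := by
        rw [perp_perp hQ, Submodule.disjoint_def]
        intro v hv hvU
        obtain ⟨g, hg⟩ := (Submodule.mem_span_range_iff_exists_fun F).1 hvU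
        simp only [Fin.sum_univ_three, Matrix.cons_val_zero, Matrix.cons_val_one, Matrix.cons_val] at hg
        have k1 := mem_perp.1 hv p.1 (Submodule.subset_span ⟨0, rfl⟩)
        have k2 := mem_perp.1 hv d (Submodule.subset_span ⟨1, rfl⟩)
        have k3 := mem_perp.1 hv f (Submodule.subset_span ⟨2, rfl⟩)
        rw [← hg] at k1 k2 k3 ⊢
        simp only [polar_add_left, polar_smul_left, polar_self, hd, hf0, hdf, polar_comm Q f d, hdp, hfp,
          polar_comm Q p.1 f, polar_comm Q p.1 d, ← hν', smul_eq_mul] at k1 k2 k3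
        have a0 : g 0 = 0 := by simpa [h2, hν] using k1
        have a2 : g 2 = 0 := by simpa using k2
        have a1 : g 1 = 0 := by simpa using k3
        simp [a0, a1, a2]
      obtain ⟨x, hx⟩ := exists_value (Q := Q.comp (perp Q U).subtype) (nondegenerate_comp_subtype hdisj)
        (by rw [finrank_perp hQ, Module.finrank_fintype_fun_eq_card]; omega) hν
      refine ⟨x, hx, mem_perp.1 x.2 p.1 (Submodule.subset_span ⟨0, rfl⟩), ?_⟩
      have hxd : polar Q (x : ι → F) d = 0 := mem_perp.1 x.2 d (Submodule.subset_span ⟨1, rfl⟩)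
      rw [hxd]
      intro h
      have h4 : (4 : F) ≠ 0 := by rw [show (4 : F) = 2 * 2 by norm_num]; exact mul_ne_zero h2 h2
      simp [h4, hν] at h
  let X : {u : ι → F // Q u ≠ 0} := ⟨x, by rw [hx]; exact hν⟩
  have h1 : listGL Q [p, X] ∈ K := pair_mem_of_plane h2 hQ K hc hK rfl hx (by
    show polar Q p.1 x ^ 2 ≠ _
    rw [polar_comm, hxp]
    intro h
    have h4 : (4 : F) ≠ 0 := by rw [show (4 : F) = 2 * 2 by norm_num]; exact mul_ne_zero h2 h2
    simp [h4, p.2] at h)
  have h3 : listGL Q [X, w] ∈ K := pair_mem_of_plane h2 hQ K hc hK hx hpw.symm (by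
    show polar Q x w.1 ^ 2 ≠ _
    have : polar Q x w.1 = polar Q x d := by
      rw [hd', polar_sub_right, polar_smul_right, hxp, smul_zero, sub_zero]
    rw [this]; exact hxd)
  have e : listGL Q [p, w] = listGL Q [p, X] * listGL Q [X, w] := by
    rw [← listGL_append]
    refine listGL_inj fun v => ?_
    show _ = refl Q p.1 p.2 (refl Q x X.2 (refl Q x X.2 (refl Q w.1 w.2 v)))
    exact congrArg (refl Q p.1 p.2) (reflL_reflL X.2 _).symm
  rw [e]; exact mul_mem h1 h3

end CfsgLib.Forms
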