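import Mathlib
set_option autoImplicit false

/-!
A commutator bound from generators modulo a subgroup.
-/

namespace CfsgLib.Forms

open Subgroup
open scoped commutatorElement

/-- If `G` is generated by `S` and `H`, `S` normalises `H` and commutes modulo `H`, then `G' ≤ H`. -/
theorem commutator_le_of_generators {G : Type*} [Group G] {H : Subgroup G} {S : Set G}
    (hnorm : ∀ s ∈ S, s ∈ Subgroup.normalizer (H : Set G))
    (hcomm : ∀ s ∈ S, ∀ t ∈ S, ∃ h ∈ H, s * t = h * (t * s))
    (hgen : ∀ g : G, g ∈ Subgroup.closure S ⊔ H) : commutator G ≤ H := by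
  have hn : Subgroup.normalizer (H : Set G) = ⊤ :=
    eq_top_iff.2 fun g _ => sup_le ((Subgroup.closure_le _).2 hnorm) Subgroup.le_normalizer (hgen g)
  haveI hH : H.Normal := Subgroup.normalizer_eq_top_iff.1 hn
  set π := QuotientGroup.mk' H with hπ
  have hS : ∀ s ∈ S, ∀ t ∈ S, π s * π t = π t * π s := by
    intro s hs t ht
    obtain ⟨h, hh, e⟩ := hcomm s hs t ht
    rw [← map_mul, e, map_mul, show π h = 1 from (QuotientGroup.eq_one_iff h).2 hh, one_mul, map_mul]
  have h1 : ∀ s ∈ S, ∀ g : G, π s * π g = π g * π s := by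
    intro s hs g
    have hle : Subgroup.closure S ⊔ H ≤ (Subgroup.centralizer {π s}).comap π := by
      refine sup_le ((Subgroup.closure_le _).2 fun t ht => ?_) fun h hh => ?_
      · exact Subgroup.mem_centralizer_singleton_iff.2 (hS t ht s hs)
      · refine Subgroup.mem_centralizer_singleton_iff.2 ?_
        rw [show π h = 1 from (QuotientGroup.eq_one_iff h).2 hh, one_mul, mul_one]
    exact (Subgroup.mem_centralizer_singleton_iff.1 (hle (hgen g))).symm
  have h2 : ∀ g g' : G, π g * π g' = π g' * π g := by
    intro g g'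
    have hle : Subgroup.closure S ⊔ H ≤ (Subgroup.centralizer {π g'}).comap π := by
      refine sup_le ((Subgroup.closure_le _).2 fun t ht => ?_) fun h hh => ?_
      · exact Subgroup.mem_centralizer_singleton_iff.2 (h1 t ht g')
      · refine Subgroup.mem_centralizer_singleton_iff.2 ?_
        rw [show π h = 1 from (QuotientGroup.eq_one_iff h).2 hh, one_mul, mul_one]
    exact Subgroup.mem_centralizer_singleton_iff.1 (hle (hgen g))
  rw [commutator_def, Subgroup.commutator_le]
  intro g _ g' _
  refine (QuotientGroup.eq_one_iff _).1 ?_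
  show π ⁅g, g'⁆ = 1
  rw [map_commutatorElement, commutatorElement_def, h2 g g']
  group

end CfsgLib.Forms
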