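import Mathlib.LinearAlgebra.FiniteDimensional.Basic
import Mathlib.LinearAlgebra.Prod
import Mathlib.Algebra.Module.Equiv.Basic

/-!
The stabiliser of a non-degenerate subspace in a group of isometries is the product of the
isometry groups of the subspace and of its orthogonal complement.
-/

set_option autoImplicit false

namespace CfsgLib.Forms

theorem exists_stabilizer_prod {F V A B H H₁ H₂ : Type*} [Field F] [AddCommGroup V] [Module F V]
    [AddCommGroup A] [Module F A] [FiniteDimensional F A] [AddCommGroup B] [Module F B] [FiniteDimensional F B]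
    [Group H] [Group H₁] [Group H₂]
    (f : V → V → F) (f₁ : A → A → F) (f₂ : B → B → F)
    (e : (A × B) ≃ₗ[F] V) (he : ∀ x y, f (e x) (e y) = f₁ x.1 y.1 + f₂ x.2 y.2)
    (h1 : ∀ a, f₁ 0 a = 0) (h1' : ∀ a, f₁ a 0 = 0) (h2' : ∀ b, f₂ b 0 = 0)
    (hnd : ∀ a, (∀ a', f₁ a a' = 0) → a = 0)
    (r : H →* (V ≃ₗ[F] V)) (hr : Function.Injective r)
    (hrf : ∀ h u v, f (r h u) (r h v) = f u v)
    (hrs : ∀ g : V ≃ₗ[F] V, (∀ u v, f (g u) (g v) = f u v) → ∃ h, r h = g)
    (r₁ : H₁ →* (A ≃ₗ[F] A)) (hr₁ : Function.Injective r₁)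
    (hrf₁ : ∀ h u v, f₁ (r₁ h u) (r₁ h v) = f₁ u v)
    (hrs₁ : ∀ g : A ≃ₗ[F] A, (∀ u v, f₁ (g u) (g v) = f₁ u v) → ∃ h, r₁ h = g)
    (r₂ : H₂ →* (B ≃ₗ[F] B)) (hr₂ : Function.Injective r₂)
    (hrf₂ : ∀ h u v, f₂ (r₂ h u) (r₂ h v) = f₂ u v)
    (hrs₂ : ∀ g : B ≃ₗ[F] B, (∀ u v, f₂ (g u) (g v) = f₂ u v) → ∃ h, r₂ h = g)
    (W : Submodule F V) (hW : ∀ x, e x ∈ W ↔ x.2 = 0)
    (S : Subgroup H) (hS : ∀ h, h ∈ S ↔ ∀ v, v ∈ W ↔ r h v ∈ W) :
    Nonempty (S ≃* H₁ × H₂) := by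
  let G : H₁ × H₂ → (V ≃ₗ[F] V) := fun p => e.symm ≪≫ₗ (LinearEquiv.prodCongr (r₁ p.1) (r₂ p.2)) ≪≫ₗ e
  have hG : ∀ p x, G p (e x) = e (r₁ p.1 x.1, r₂ p.2 x.2) := fun p x => by
    simp [G]
  have hGf : ∀ p u v, f (G p u) (G p v) = f u v := by
    intro p u v
    obtain ⟨x, rfl⟩ := e.surjective u
    obtain ⟨y, rfl⟩ := e.surjective v
    rw [hG, hG, he, he, hrf₁, hrf₂]
  choose φ hφ using fun p => hrs (G p) (hGf p)
  have hmul : ∀ p p', φ (p * p') = φ p * φ p' := fun p p' => by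
    refine hr ?_
    rw [map_mul, hφ, hφ, hφ]
    refine LinearEquiv.ext fun v => ?_
    obtain ⟨x, rfl⟩ := e.surjective v
    show G (p * p') (e x) = G p (G p' (e x))
    rw [hG, hG, hG]
    simp
  let Φ : H₁ × H₂ →* H := MonoidHom.mk' φ hmul
  have hmem : ∀ p, Φ p ∈ S := fun p => by
    rw [hS]
    intro v
    obtain ⟨x, rfl⟩ := e.surjective v
    show e x ∈ W ↔ r (φ p) (e x) ∈ W
    rw [hφ, hG, hW, hW]
    exact (LinearEquiv.map_eq_zero_iff _).symm
  refine ⟨(MulEquiv.ofBijective (Φ.codRestrict S hmem) ⟨fun p p' h => ?_, fun ⟨h, hh⟩ => ?_⟩).symm⟩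
  · have h' : r (φ p) = r (φ p') := congrArg r (congrArg Subtype.val h)
    rw [hφ, hφ] at h'
    refine Prod.ext (hr₁ (LinearEquiv.ext fun a => ?_)) (hr₂ (LinearEquiv.ext fun b => ?_))
    · have := LinearEquiv.congr_fun h' (e (a, 0))
      rw [hG, hG] at this
      exact congrArg Prod.fst (e.injective this)
    · have := LinearEquiv.congr_fun h' (e (0, b))
      rw [hG, hG] at this
      exact congrArg Prod.snd (e.injective this)
  · rw [hS] at hh
    let g := r h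
    let g₁ : A →ₗ[F] A := (LinearMap.fst F A B).comp ((e.symm.toLinearMap.comp (g.toLinearMap.comp e.toLinearMap)).comp (LinearMap.inl F A B))
    let g₂ : B →ₗ[F] B := (LinearMap.snd F A B).comp ((e.symm.toLinearMap.comp (g.toLinearMap.comp e.toLinearMap)).comp (LinearMap.inr F A B))
    have hA : ∀ a, g (e (a, 0)) = e (g₁ a, 0) := fun a => by
      have h3 : (e.symm (g (e (a, 0)))).2 = 0 :=
        (hW _).1 (by rw [e.apply_symm_apply]; exact (hh _).1 ((hW _).2 rfl))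
      conv_lhs => rw [← e.apply_symm_apply (g (e (a, 0)))]
      exact congrArg e (Prod.ext rfl h3)
    have hg₁ : Function.Injective g₁ := fun a a' haa => by
      have := g.injective ((hA a).trans ((congrArg (fun z => e (z, 0)) haa).trans (hA a').symm))
      exact congrArg Prod.fst (e.injective this)
    let L₁ := LinearEquiv.ofInjectiveEndo g₁ hg₁
    have hB : ∀ b, g (e (0, b)) = e (0, g₂ b) := fun b => by
      conv_lhs => rw [← e.apply_symm_apply (g (e (0, b)))]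
      refine congrArg e (Prod.ext ?_ rfl)
      refine hnd _ fun a' => ?_
      obtain ⟨a, rfl⟩ := L₁.surjective a'
      have h3 := he (e.symm (g (e (0, b)))) (g₁ a, 0)
      rw [e.apply_symm_apply, ← hA a, hrf, he] at h3
      simp only [h2', add_zero, h1] at h3
      rw [show L₁ a = g₁ a from rfl]
      exact h3.symm
    have hg₂ : Function.Injective g₂ := fun a a' haa => by
      have := g.injective ((hB a).trans ((congrArg (fun z => e (0, z)) haa).trans (hB a').symm))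
      exact congrArg Prod.snd (e.injective this)
    let L₂ := LinearEquiv.ofInjectiveEndo g₂ hg₂
    have hf1 : ∀ u v, f₁ (L₁ u) (L₁ v) = f₁ u v := fun u v => by
      have h3 := hrf h (e (u, 0)) (e (v, 0))
      rw [hA, hA, he, he] at h3
      simpa [h2', L₁] using h3
    have hf2 : ∀ u v, f₂ (L₂ u) (L₂ v) = f₂ u v := fun u v => by
      have h3 := hrf h (e (0, u)) (e (0, v))
      rw [hB, hB, he, he] at h3
      simpa [h1', L₂] using h3
    obtain ⟨p₁, hp₁⟩ := hrs₁ L₁ hf1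
    obtain ⟨p₂, hp₂⟩ := hrs₂ L₂ hf2
    refine ⟨(p₁, p₂), Subtype.ext (hr (LinearEquiv.ext fun v => ?_))⟩
    obtain ⟨x, rfl⟩ := e.surjective v
    show r (φ (p₁, p₂)) (e x) = g (e x)
    rw [hφ, hG, hp₁, hp₂]
    conv_rhs => rw [show x = (x.1, 0) + (0, x.2) by simp, map_add, map_add, hA, hB, ← map_add]
    simp [L₁, L₂]

end CfsgLib.Forms
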